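import Cfsg.Agent.Lib.RuMult.Defs

/-! The relations of the collector hold, checked in slices. -/

set_option autoImplicit false
set_option maxRecDepth 100000
set_option Elab.async false

namespace CfsgLib.RuMult

open CfsgLib.SchurMult CfsgLib.SchurMult.PermCert
open CfsgLib.SporRecognition.CosetCert (allBelow allBelow_spec field)

/-- The relations and conjugations of the collector. -/
noncomputable def relConjOK : Bool :=
  (Data.colRu.rels.all fun r => ruTables.sameWord r.1 r.2) &&
    Data.colRu.eqs.all fun e =>
      match e with
      | .assoc _ _ => true
      | .conj k m _ => m.all fun q => ruTables.sameWord ((Data.colRu.n + k) :: Collector.digits Data.colRu.n q.1)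
          (Collector.digits Data.colRu.n q.2 ++ [Data.colRu.n + k])

theorem all_of_slices {α : Type} {f : α → Bool} {l : List α} (n : ℕ) (h₁ : (l.take n).all f = true)
    (h₂ : (l.drop n).all f = true) : l.all f = true := by
  rw [← List.take_append_drop n l, List.all_append, h₁, h₂]; rfl

theorem rels_a : (Data.colRu.rels.take 25).all (fun r => ruTables.sameWord r.1 r.2) = true := by decide +kernel

theorem rels_b : ((Data.colRu.rels.drop 25).take 25).all (fun r => ruTables.sameWord r.1 r.2) = true := by decide +kernel

theorem rels_c : (((Data.colRu.rels.drop 25).drop 25).take 25).all (fun r => ruTables.sameWord r.1 r.2) = true := by decide +kernel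

theorem rels_d : (((Data.colRu.rels.drop 25).drop 25).drop 25).all (fun r => ruTables.sameWord r.1 r.2) = true := by decide +kernel

theorem eqs_all : Data.colRu.eqs.all (fun e =>
      match e with
      | .assoc _ _ => true
      | .conj k m _ => m.all fun q => ruTables.sameWord ((Data.colRu.n + k) :: Collector.digits Data.colRu.n q.1)
          (Collector.digits Data.colRu.n q.2 ++ [Data.colRu.n + k])) = true := by decide +kernel

theorem relConj_ok : relConjOK = true := by
  unfold relConjOK
  rw [all_of_slices 25 rels_a (all_of_slices 25 rels_b (all_of_slices 25 rels_c rels_d)), eqs_all]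
  rfl

end CfsgLib.RuMult
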