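import Cfsg.Agent.Lib.RuMult.Defs
import Cfsg.Agent.Lib.SchurMult.FreeCollect

/-! The collector certificate and the keys. -/

set_option autoImplicit false
set_option maxRecDepth 100000
set_option Elab.async false

namespace CfsgLib.RuMult

open CfsgLib.SchurMult CfsgLib.SchurMult.PermCert
open CfsgLib.SporRecognition.CosetCert (allBelow allBelow_spec field)

theorem pair_ok : FreeCollect.pairOKF Data.colRu Data.pairX Data.pairY = true := by decide +kernel

theorem solved_ok : FreeCollect.solvedF Data.colRu Data.masks
    (FreeCollect.pairCommF Data.colRu Data.pairX Data.pairY) Data.extraRu = true := by decide +kernel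

/-- The `k`-th normal form in the order of keys. -/
noncomputable def orderAt (k : ℕ) : ℕ :=
  field (Data.orderParts.getD (Nat.shiftRight k 10) 0) 14 (Nat.land k 1023)

/-- The key of the `k`-th normal form. -/
noncomputable def keyAtTwo (k : ℕ) : ℕ :=
  ruTables.key Data.ptsTwo (Collector.digits 14 (orderAt k))

/-- The keys increase. -/
noncomputable def keyStep (k : ℕ) : Bool := Nat.blt (keyAtTwo k) (keyAtTwo (k + 1))

theorem keys_ok : allBelow 14 16383 keyStep = true ∧ Data.ptsTwo.all (fun p => Nat.blt p 4060) = true ∧
    14 ≤ ruTables.ts.length := by decide +kernel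

end CfsgLib.RuMult
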