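import Cfsg.Agent.Lib.RuMult.Defs
import Cfsg.Agent.Lib.RuPerm.Vectors
import Cfsg.Agent.Lib.RuPerm.Data.Nodes

/-! Each table is a word in the generators. -/

set_option autoImplicit false
set_option maxRecDepth 100000
set_option Elab.async false

namespace CfsgLib.RuMult

open CfsgLib.SchurMult CfsgLib.SchurMult.PermCert
open CfsgLib.RuPerm
open CfsgLib.SporRecognition.CosetCert (allBelow allBelow_spec field)

/-- Table `i` agrees with a tree table. -/
noncomputable def sameTab (i : ℕ) (t : ℕ → ℕ) : Bool :=
  allBelow 12 4060 fun u => Nat.beq (ruTables.img i u) (t u)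

/-- The four generators are among the tables. -/
theorem base_ok :
    sameTab (Data.baseIdx.getD 0 0) (tab RuPerm.Data.n0 12) = true ∧
    sameTab (Data.baseIdx.getD 1 0) (tab RuPerm.Data.n1 12) = true ∧
    sameTab (Data.baseIdx.getD 2 0) (tab RuPerm.Data.n0i 12) = true ∧
    sameTab (Data.baseIdx.getD 3 0) (tab RuPerm.Data.n1i 12) = true := by
  decide +kernel

/-- The definitions refer to known tables only and cover all of them. -/
def defsKnown : List (ℕ × List ℕ) → List ℕ → Bool
  | [], known => (List.range ruTables.ts.length).all fun i => known.contains i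
  | (i, w) :: ds, known => w.all (fun j => known.contains j) && defsKnown ds (i :: known)

/-- The `k`-th table is the value of its word. -/
noncomputable def defSame (k : ℕ) : Bool :=
  ruTables.sameWord [(Data.defsList.getD k (0, [])).1] (Data.defsList.getD k (0, [])).2

theorem known_ok : defsKnown Data.defsList Data.baseIdx = true ∧ Data.defsList.length = 96 := by decide +kernel

theorem same0 : (defSame 0 && defSame 1 && defSame 2 && defSame 3 : Bool) = true := by decide +kernel

theorem same1 : (defSame 4 && defSame 5 && defSame 6 && defSame 7 : Bool) = true := by decide +kernel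

theorem same2 : (defSame 8 && defSame 9 && defSame 10 && defSame 11 : Bool) = true := by decide +kernel

theorem same3 : (defSame 12 && defSame 13 && defSame 14 && defSame 15 : Bool) = true := by decide +kernel

theorem same4 : (defSame 16 && defSame 17 && defSame 18 && defSame 19 : Bool) = true := by decide +kernel

theorem same5 : (defSame 20 && defSame 21 && defSame 22 && defSame 23 : Bool) = true := by decide +kernel

theorem same6 : (defSame 24 && defSame 25 && defSame 26 && defSame 27 : Bool) = true := by decide +kernel

theorem same7 : (defSame 28 && defSame 29 && defSame 30 && defSame 31 : Bool) = true := by decide +kernel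

theorem same8 : (defSame 32 && defSame 33 && defSame 34 && defSame 35 : Bool) = true := by decide +kernel

theorem same9 : (defSame 36 && defSame 37 && defSame 38 && defSame 39 : Bool) = true := by decide +kernel

theorem same10 : (defSame 40 && defSame 41 && defSame 42 && defSame 43 : Bool) = true := by decide +kernel

theorem same11 : (defSame 44 && defSame 45 && defSame 46 && defSame 47 : Bool) = true := by decide +kernel

theorem same12 : (defSame 48 && defSame 49 && defSame 50 && defSame 51 : Bool) = true := by decide +kernel

theorem same13 : (defSame 52 && defSame 53 && defSame 54 && defSame 55 : Bool) = true := by decide +kernel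

theorem same14 : (defSame 56 && defSame 57 && defSame 58 && defSame 59 : Bool) = true := by decide +kernel

theorem same15 : (defSame 60 && defSame 61 && defSame 62 && defSame 63 : Bool) = true := by decide +kernel

theorem same16 : (defSame 64 && defSame 65 && defSame 66 && defSame 67 : Bool) = true := by decide +kernel

theorem same17 : (defSame 68 && defSame 69 && defSame 70 && defSame 71 : Bool) = true := by decide +kernel

theorem same18 : (defSame 72 && defSame 73 && defSame 74 && defSame 75 : Bool) = true := by decide +kernel

theorem same19 : (defSame 76 && defSame 77 && defSame 78 && defSame 79 : Bool) = true := by decide +kernel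

theorem same20 : (defSame 80 && defSame 81 && defSame 82 && defSame 83 : Bool) = true := by decide +kernel

theorem same21 : (defSame 84 && defSame 85 && defSame 86 && defSame 87 : Bool) = true := by decide +kernel

theorem same22 : (defSame 88 && defSame 89 && defSame 90 && defSame 91 : Bool) = true := by decide +kernel

theorem same23 : (defSame 92 && defSame 93 && defSame 94 && defSame 95 : Bool) = true := by decide +kernel

theorem same_all : ∀ k < 96, defSame k = true := by
  intro k hk
  have h0 := same0
  have h1 := same1
  have h2 := same2
  have h3 := same3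
  have h4 := same4
  have h5 := same5
  have h6 := same6
  have h7 := same7
  have h8 := same8
  have h9 := same9
  have h10 := same10
  have h11 := same11
  have h12 := same12
  have h13 := same13
  have h14 := same14
  have h15 := same15
  have h16 := same16
  have h17 := same17
  have h18 := same18
  have h19 := same19
  have h20 := same20
  have h21 := same21
  have h22 := same22
  have h23 := same23
  simp only [Bool.and_eq_true] at h0 h1 h2 h3 h4 h5 h6 h7 h8 h9 h10 h11 h12 h13 h14 h15 h16 h17 h18 h19 h20 h21 h22 h23
  interval_cases k
  · exact h0.1.1.1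
  · exact h0.1.1.2
  · exact h0.1.2
  · exact h0.2
  · exact h1.1.1.1
  · exact h1.1.1.2
  · exact h1.1.2
  · exact h1.2
  · exact h2.1.1.1
  · exact h2.1.1.2
  · exact h2.1.2
  · exact h2.2
  · exact h3.1.1.1
  · exact h3.1.1.2
  · exact h3.1.2
  · exact h3.2
  · exact h4.1.1.1
  · exact h4.1.1.2
  · exact h4.1.2
  · exact h4.2
  · exact h5.1.1.1
  · exact h5.1.1.2
  · exact h5.1.2
  · exact h5.2
  · exact h6.1.1.1
  · exact h6.1.1.2
  · exact h6.1.2
  · exact h6.2
  · exact h7.1.1.1
  · exact h7.1.1.2
  · exact h7.1.2
  · exact h7.2
  · exact h8.1.1.1
  · exact h8.1.1.2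
  · exact h8.1.2
  · exact h8.2
  · exact h9.1.1.1
  · exact h9.1.1.2
  · exact h9.1.2
  · exact h9.2
  · exact h10.1.1.1
  · exact h10.1.1.2
  · exact h10.1.2
  · exact h10.2
  · exact h11.1.1.1
  · exact h11.1.1.2
  · exact h11.1.2
  · exact h11.2
  · exact h12.1.1.1
  · exact h12.1.1.2
  · exact h12.1.2
  · exact h12.2
  · exact h13.1.1.1
  · exact h13.1.1.2
  · exact h13.1.2
  · exact h13.2
  · exact h14.1.1.1
  · exact h14.1.1.2
  · exact h14.1.2
  · exact h14.2
  · exact h15.1.1.1
  · exact h15.1.1.2
  · exact h15.1.2
  · exact h15.2
  · exact h16.1.1.1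
  · exact h16.1.1.2
  · exact h16.1.2
  · exact h16.2
  · exact h17.1.1.1
  · exact h17.1.1.2
  · exact h17.1.2
  · exact h17.2
  · exact h18.1.1.1
  · exact h18.1.1.2
  · exact h18.1.2
  · exact h18.2
  · exact h19.1.1.1
  · exact h19.1.1.2
  · exact h19.1.2
  · exact h19.2
  · exact h20.1.1.1
  · exact h20.1.1.2
  · exact h20.1.2
  · exact h20.2
  · exact h21.1.1.1
  · exact h21.1.1.2
  · exact h21.1.2
  · exact h21.2
  · exact h22.1.1.1
  · exact h22.1.1.2
  · exact h22.1.2
  · exact h22.2
  · exact h23.1.1.1
  · exact h23.1.1.2
  · exact h23.1.2
  · exact h23.2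

end CfsgLib.RuMult
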