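import Cfsg.Agent.Lib.RuMult.Tables
import Cfsg.Agent.Lib.RuMult.Cert
import Cfsg.Agent.Lib.SchurMult.PermCert

/-! The tables as a certificate. -/

set_option autoImplicit false
set_option maxRecDepth 100000
set_option Elab.async false

namespace CfsgLib.RuMult

open CfsgLib.SchurMult CfsgLib.SchurMult.PermCert
open CfsgLib.SporRecognition.CosetCert (allBelow allBelow_spec field)

/-- The tables. -/
def ruTables : Tables where
  n := 4060
  depth := 12
  ts := Data.eltTbls

end CfsgLib.RuMult
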