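import Cfsg.Agent.Lib.RuMult.ChecksWords
import Cfsg.Agent.Lib.RuMult.ChecksRels
import Cfsg.Agent.Lib.RuMult.ChecksTwo
import Cfsg.Agent.Lib.RuPerm.Cover
import Cfsg.Agent.Lib.SchurMult.PermCert
import Cfsg.Agent.Lib.SchurMult.FreeCollect
import Cfsg.Agent.Lib.SchurMult.SmallSylow

/-! The elements of the certificate inside the rank three group, and the bound on the kernels of its stem
extensions. -/

set_option autoImplicit false
set_option maxRecDepth 100000
set_option Elab.async false

namespace CfsgLib.RuMult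

open CfsgLib.SchurMult CfsgLib.SchurMult.PermCert CfsgLib.RuPerm
open CfsgLib.SporRecognition.CosetCert (allBelow allBelow_spec field)

theorem real_word {w : List ℕ} (h : ∀ i ∈ w, Real grp (ruTables.img i)) : Real grp (ruTables.imgW w) := by
  induction w with
  | nil => exact ⟨1, one_mem _, fun _ => rfl⟩
  | cons a w ih =>
    obtain ⟨g, hg, hgv⟩ := h a (List.mem_cons_self ..)
    obtain ⟨k, hk, hkv⟩ := ih fun i hi => h i (List.mem_cons_of_mem _ hi)
    exact ⟨g * k, mul_mem hg hk, fun u => by rw [Equiv.Perm.mul_apply, hgv, hkv]; rfl⟩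

theorem real_all : ∀ {ds : List (ℕ × List ℕ)} {known : List ℕ}, defsKnown ds known = true →
    (∀ p ∈ ds, ruTables.sameWord [p.1] p.2 = true) →
    (∀ i ∈ known, Real grp (ruTables.img i)) → ∀ i < ruTables.ts.length, Real grp (ruTables.img i)
  | [], known, h, _, hk, i, hi => by
    simp only [defsKnown, List.all_eq_true, List.mem_range, List.contains_iff_mem] at h
    exact hk i (h i hi)
  | (a, w) :: ds, known, h, hs, hk, i, hi => by
    simp only [defsKnown, Bool.and_eq_true, List.all_eq_true, List.contains_iff_mem] at h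
    obtain ⟨hw, hrest⟩ := h
    refine real_all hrest (fun p hp => hs p (List.mem_cons_of_mem _ hp)) (fun j hj => ?_) i hi
    rcases List.mem_cons.1 hj with rfl | hj
    · obtain ⟨g, hg, hgv⟩ := real_word fun k hk' => hk k (hw k hk')
      refine ⟨g, hg, fun u => ?_⟩
      have hsu := hs _ (List.mem_cons_self ..)
      simp only [Tables.sameWord, Bool.and_eq_true] at hsu
      rw [hgv]
      exact (Nat.eq_of_beq_eq_true (allBelow_spec hsu.2 u u.2)).symm
    · exact hk j hj

theorem defs_same : ∀ p ∈ Data.defsList, ruTables.sameWord [p.1] p.2 = true := by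
  intro p hp
  obtain ⟨k, hk, rfl⟩ := List.getElem_of_mem hp
  have h := same_all k (known_ok.2 ▸ hk)
  rwa [defSame, List.getD_eq_getElem _ _ hk] at h

theorem real_of_sameTab {i : ℕ} {t : ℕ → ℕ} (h : sameTab i t = true) (hr : Real grp t) :
    Real grp (ruTables.img i) := by
  obtain ⟨g, hg, hgv⟩ := hr
  exact ⟨g, hg, fun u => by rw [hgv, Nat.eq_of_beq_eq_true (allBelow_spec h u u.2)]⟩

theorem real_tables : ∀ i < ruTables.ts.length, Real grp (ruTables.img i) := by
  refine real_all known_ok.1 defs_same fun i hi => ?_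
  obtain ⟨b0, b1, b2, b3⟩ := base_ok
  obtain ⟨k, hk, rfl⟩ := List.getElem_of_mem hi
  have hk' : k < 4 := hk
  interval_cases k
  exacts [real_of_sameTab b0 real_n0, real_of_sameTab b1 real_n1, real_of_sameTab b2 real_n0i,
    real_of_sameTab b3 real_n1i]

open scoped Classical in
/-- The listed elements. -/
noncomputable def el (i : ℕ) : grp :=
  if h : Real grp (ruTables.img i) then ⟨h.choose, h.choose_spec.1⟩ else 1

theorem realises : ruTables.Realises grp.subtype el where
  deg := rfl
  inj := Subgroup.subtype_injective _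
  img i hi u := by
    have h := real_tables i hi
    rw [el, dif_pos h, Subgroup.coe_subtype]
    exact h.choose_spec.2 u

theorem le_card_two : 2 ^ 14 ≤ Nat.card (Subgroup.closure (el '' Set.Iio 14)) := by
  obtain ⟨hk, hp, hlen⟩ := keys_ok
  have hmono : ∀ a b, a < b → b ≤ 16383 → keyAtTwo a < keyAtTwo b := by
    intro a b hab hb
    induction b with
    | zero => omega
    | succ b ih =>
      have h := allBelow_spec hk b (by omega)
      simp only [keyStep, Nat.blt_eq] at h
      rcases Nat.lt_or_eq_of_le (Nat.lt_succ_iff.1 hab) with h' | rfl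
      · exact (ih h' (by omega)).trans h
      · exact h
  have hmem : ∀ k, lprod el (Collector.digits 14 (orderAt k)) ∈ Subgroup.closure (el '' Set.Iio 14) :=
    fun k => Tables.lprod_mem fun i hi =>
      Subgroup.subset_closure ⟨i, Set.mem_Iio.2 (FreeCollect.digits_lt 14 _ i hi), rfl⟩
  let F : Fin (2 ^ 14) → Subgroup.closure (el '' Set.Iio 14) := fun k => ⟨_, hmem k.1⟩
  have hF : Function.Injective F := by
    intro a b hab
    simp only [List.all_eq_true, Nat.blt_eq] at hp
    have e : keyAtTwo a = keyAtTwo b := realises.key_eq hp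
      (fun i hi => (FreeCollect.digits_lt 14 _ i hi).trans_le hlen)
      (fun i hi => (FreeCollect.digits_lt 14 _ i hi).trans_le hlen) (congrArg Subtype.val hab)
    have ha := a.2
    have hb := b.2
    norm_num at ha hb
    rcases lt_trichotomy a.1 b.1 with h | h | h
    · exact absurd e (hmono _ _ h (by omega)).ne
    · exact Fin.ext h
    · exact absurd e (hmono _ _ h (by omega)).ne'
  calc 2 ^ 14 = Nat.card (Fin (2 ^ 14)) := (Nat.card_fin _).symm
    _ ≤ _ := Nat.card_le_card_of_injective F hF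

theorem card_grp : Nat.card grp = 2 ^ 14 * (3 ^ 3 * 5 ^ 3 * 7 * 13 * 29) := by
  rw [card_grp_and_stab.1]; norm_num

universe v

variable {Γ : Type} [Group Γ] [Finite Γ] {σ : Γ →* grp}

/-- The `2`-part. -/
theorem two_part (hσ : Cfsg.IsStemExtension σ) :
    ∃ w : Γ, w ^ 2 = 1 ∧ ∀ z ∈ σ.ker, ∀ k : ℕ, z ^ 2 ^ k = 1 → z ∈ Subgroup.zpowers w := by
  have hok := relConj_ok
  simp only [relConjOK, Bool.and_eq_true, List.all_eq_true] at hok
  obtain ⟨hrel, hconj⟩ := hok
  refine FreeCollect.two_elements_le_zpowers Data.colRu el (fun k => el (Data.colRu.n + k)) pair_ok solved_ok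
    (fun v hv => ?_) (fun e he => ?_) le_card_two ⟨3 ^ 3 * 5 ^ 3 * 7 * 13 * 29, by norm_num, card_grp⟩ hσ
  · rw [List.getD_eq_getElem _ _ hv]
    exact realises.eq_of_sameWord (hrel _ (List.getElem_mem hv))
  · have := hconj e he
    cases e with
    | assoc pre v => trivial
    | conj k m pairs =>
      simp only [List.all_eq_true] at this
      intro q hq
      have e := realises.eq_of_sameWord (this q hq)
      rw [lprod, lprod_append, lprod_digits, lprod_digits] at e
      simp only [lprod, mul_one] at e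
      exact mul_inv_eq_iff_eq_mul.2 e

/-- The pairs of equal words of an extraspecial Sylow subgroup with two conjugations. -/
def relsOdd (p o a b c d a' b' c' d' : ℕ) : List (List ℕ × List ℕ) :=
  [([o, o + 1], [o + 2, o + 1, o]), (Tables.rep o p, []), (Tables.rep (o + 1) p, []), (Tables.rep (o + 2) p, []),
    ([o, o + 2], [o + 2, o]), ([o + 1, o + 2], [o + 2, o + 1]),
    ([o + 3, o], Tables.rep o a ++ Tables.rep (o + 2) b ++ [o + 3]),
    ([o + 3, o + 2], Tables.rep o c ++ Tables.rep (o + 2) d ++ [o + 3]),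
    ([o + 4, o + 1], Tables.rep (o + 1) a' ++ Tables.rep (o + 2) b' ++ [o + 4]),
    ([o + 4, o + 2], Tables.rep (o + 1) c' ++ Tables.rep (o + 2) d' ++ [o + 4])]

theorem rels5_ok : (relsOdd 5 18 2 0 0 1 4 4 0 1).all (fun r => ruTables.sameWord r.1 r.2) = true := by
  decide +kernel

theorem rels3_ok : (relsOdd 3 23 2 2 0 1 2 2 0 1).all (fun r => ruTables.sameWord r.1 r.2) = true := by
  decide +kernel

theorem moved_ok : Nat.beq (ruTables.img 20 0) 0 = false ∧ Nat.beq (ruTables.img 25 0) 0 = false ∧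
    20 < ruTables.ts.length ∧ 25 < ruTables.ts.length := by decide +kernel

theorem words_ok :
    (ruTables.keysIncr Data.pts5 Data.words5 = true ∧ Data.words5.length = 5 ^ 3 ∧
      (∀ w ∈ Data.words5, ∀ i ∈ w, i = 18 ∨ i = 19) ∧ ∀ q ∈ Data.pts5, q < 4060) ∧
    (ruTables.keysIncr Data.pts3 Data.words3 = true ∧ Data.words3.length = 3 ^ 3 ∧
      (∀ w ∈ Data.words3, ∀ i ∈ w, i = 23 ∨ i = 24) ∧ ∀ q ∈ Data.pts3, q < 4060) := by decide +kernel

theorem el_ne_one {i : ℕ} (hi : i < ruTables.ts.length) (h : Nat.beq (ruTables.img i 0) 0 = false) :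
    el i ≠ 1 := by
  intro e
  have h1 : ((1 : Equiv.Perm (Fin 4060)) ⟨0, by norm_num⟩).1 = ruTables.img i 0 := by
    have h2 := realises.img i hi ⟨0, by norm_num⟩
    rwa [e, map_one] at h2
  rw [Equiv.Perm.one_apply] at h1
  rw [← h1] at h
  simp at h

theorem not_dvd_odd (hσ : Cfsg.IsStemExtension σ) {p o m a b c d a' b' c' d' : ℕ} (hp : p.Prime)
    (hrels : (relsOdd p o a b c d a' b' c' d').all (fun r => ruTables.sameWord r.1 r.2) = true)
    (hne : el (o + 2) ≠ 1) {pts : List ℕ} {words : List (List ℕ)}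
    (hk : ruTables.keysIncr pts words = true) (hlen : words.length = p ^ 3)
    (hxy : ∀ w ∈ words, ∀ i ∈ w, i = o ∨ i = o + 1) (hpts : ∀ q ∈ pts, q < 4060)
    (hcard : Nat.card grp = p ^ 3 * m) (hm : ¬ p ∣ m)
    (hdet : (a * d + (p - 1) * (b * c)) % p ≠ 1) (hdet' : (a' * d' + (p - 1) * (b' * c')) % p ≠ 1) :
    ¬ p ∣ Nat.card σ.ker := by
  simp only [relsOdd, List.all_cons, List.all_nil, Bool.and_eq_true, and_true] at hrels
  obtain ⟨e1, ex, ey, ez, exz, eyz, egx, egz, ehy, ehz⟩ := hrels
  replace e1 := realises.eq_of_sameWord e1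
  replace ex := realises.eq_of_sameWord ex
  replace ey := realises.eq_of_sameWord ey
  replace ez := realises.eq_of_sameWord ez
  replace exz := realises.eq_of_sameWord exz
  replace eyz := realises.eq_of_sameWord eyz
  replace egx := realises.eq_of_sameWord egx
  replace egz := realises.eq_of_sameWord egz
  replace ehy := realises.eq_of_sameWord ehy
  replace ehz := realises.eq_of_sameWord ehz
  simp only [lprod_append, Tables.lprod_rep, lprod, mul_one] at e1 ex ey ez exz eyz egx egz ehy ehz
  have hzc : el o * el (o + 1) * (el o)⁻¹ * (el (o + 1))⁻¹ = el (o + 2) := by rw [e1]; group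
  exact OddSylow.not_dvd_of_extraspecial hσ hp hzc ex ey hne exz eyz
    (mul_inv_eq_iff_eq_mul.2 egx) (mul_inv_eq_iff_eq_mul.2 egz) hdet
    (mul_inv_eq_iff_eq_mul.2 ehy) (mul_inv_eq_iff_eq_mul.2 ehz) hdet'
    (realises.not_dvd_index hp hpts hk hlen hxy hcard hm
      (Tables.natCard_closure_le_cube hp.pos ex ey ez hzc exz eyz))

theorem not_five (hσ : Cfsg.IsStemExtension σ) : ¬ 5 ∣ Nat.card σ.ker := by
  obtain ⟨⟨h1, h2, h3, h4⟩, -⟩ := words_ok
  exact not_dvd_odd hσ (m := 2 ^ 14 * 3 ^ 3 * 7 * 13 * 29) (by norm_num) rels5_ok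
    (el_ne_one moved_ok.2.2.1 moved_ok.1) h1 h2 h3 h4 (by rw [card_grp]; norm_num) (by norm_num)
    (by norm_num) (by norm_num)

theorem not_three (hσ : Cfsg.IsStemExtension σ) : ¬ 3 ∣ Nat.card σ.ker := by
  obtain ⟨-, h1, h2, h3, h4⟩ := words_ok
  exact not_dvd_odd hσ (m := 2 ^ 14 * 5 ^ 3 * 7 * 13 * 29) Nat.prime_three rels3_ok
    (el_ne_one moved_ok.2.2.2 moved_ok.2.1) h1 h2 h3 h4 (by rw [card_grp]; norm_num) (by norm_num)
    (by norm_num) (by norm_num)

/-- Every stem extension has kernel of order at most two. -/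
theorem card_ker_dvd_two (hσ : Cfsg.IsStemExtension σ) : Nat.card σ.ker ∣ 2 := by
  obtain ⟨w, hw, hz⟩ := two_part hσ
  have hodd : ∀ p : ℕ, p.Prime → p ∣ Nat.card σ.ker → p = 2 := fun p hp hpk => by
    by_contra h2
    by_cases h3 : p = 3
    · subst h3; exact not_three hσ hpk
    by_cases h5 : p = 5
    · subst h5; exact not_five hσ hpk
    refine not_dvd_card_ker_of_sq_not_dvd hσ hp ?_ hpk
    rw [card_grp]
    intro hsq
    have hpd : p ∣ 2 ^ 14 * (3 ^ 3 * 5 ^ 3 * 7 * 13 * 29) := (dvd_pow_self p two_ne_zero).trans hsq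
    simp only [hp.dvd_mul] at hpd
    rcases hpd with h | (((h | h) | h) | h) | h
    · exact h2 ((Nat.prime_dvd_prime_iff_eq hp Nat.prime_two).1 (hp.dvd_of_dvd_pow h))
    · exact h3 ((Nat.prime_dvd_prime_iff_eq hp Nat.prime_three).1 (hp.dvd_of_dvd_pow h))
    · exact h5 ((Nat.prime_dvd_prime_iff_eq hp (by norm_num)).1 (hp.dvd_of_dvd_pow h))
    · obtain rfl := (Nat.prime_dvd_prime_iff_eq hp (by norm_num)).1 h; norm_num at hsq
    · obtain rfl := (Nat.prime_dvd_prime_iff_eq hp (by norm_num)).1 h; norm_num at hsq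
    · obtain rfl := (Nat.prime_dvd_prime_iff_eq hp (by norm_num)).1 h; norm_num at hsq
  have htwo := Nat.eq_prime_pow_of_unique_prime_dvd (n := Nat.card σ.ker) Nat.card_pos.ne'
    fun {d} hd hdd => hodd d hd hdd
  have hle : σ.ker ≤ Subgroup.zpowers w := fun z hzk =>
    hz z hzk (Nat.card σ.ker).primeFactorsList.length (by
      have := pow_card_eq_one' (G := σ.ker) (x := ⟨z, hzk⟩)
      rw [htwo] at this
      exact congrArg Subtype.val this)
  exact (Subgroup.card_dvd_of_le hle).trans
    (by rw [Nat.card_zpowers]; exact orderOf_dvd_of_pow_eq_one hw)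

end CfsgLib.RuMult
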