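import Cfsg.Agent.Lib.RuMult.Elements
import Cfsg.Agent.Lib.SchurMult.PerfectCover

/-!
The Schur multiplier of Ru has order two: the derived subgroup of the lattice automorphism group is a stem
extension, and the tenth power of the commutator of the two generators is a scalar other than one.
-/

set_option autoImplicit false
set_option maxRecDepth 100000
set_option Elab.async false

namespace CfsgLib.RuMult

open CfsgLib.RuPerm Cfsg.Spor
open scoped commutatorElement

/-- The first generator upstairs. -/
noncomputable def upA : fourRu := lift genA imgA_ok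

/-- The second generator upstairs. -/
noncomputable def upB : fourRu := lift genB imgB_ok

/-- The witness on the points. -/
noncomputable def witSym : Equiv.Perm Pt :=
  (genPerm genA * genPerm genB * (genPerm genA)⁻¹ * (genPerm genB)⁻¹) ^ 10

theorem wit_fix : (∀ j : Fin 6, (witSym (⟨j.1, by omega⟩, 0)).1.1 = j.1) ∧
    (witSym ((0 : Fin 4060), 0)).2 ≠ 0 := by decide +kernel

/-- The witness in the cover. -/
noncomputable def wit : fourRu := ⁅upA, upB⁆ ^ 10

theorem toSym_wit : (toSym wit).1 = witSym := by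
  rw [wit, map_pow, SubgroupClass.coe_pow, map_commutatorElement, commutatorElement_def, Subgroup.coe_mul,
    Subgroup.coe_mul, Subgroup.coe_mul, Subgroup.coe_inv, Subgroup.coe_inv, upA, upB, toSym_lift, toSym_lift]
  rfl

theorem wit_center : wit ∈ Subgroup.center fourRu := by
  rw [center_eq, MonoidHom.mem_ker]
  refine eq_one_of_fix_lines ⟨toSym wit, rfl⟩ fun i hi => Fin.ext ?_
  show ((lineHom (toSym wit)) i).1 = i.1
  rw [lineHom_apply, toSym_wit]
  exact wit_fix.1 ⟨i.1, hi⟩

theorem wit_ne_one : wit ≠ 1 := by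
  intro h
  refine wit_fix.2 ?_
  rw [← toSym_wit, h, map_one]
  rfl

theorem hasCyclicSchurMultiplier_Ru : Cfsg.HasCyclicSchurMultiplier Ru 2 := by
  haveI : Finite sym := inferInstance
  haveI : Finite fourRu := Finite.of_equiv sym equivSym.toEquiv.symm
  haveI hs : IsSimpleGroup Ru := ru_facts.2.2
  haveI : Finite Ru := Nat.finite_of_card_ne_zero (by rw [ru_facts.2.1]; norm_num)
  have hperf : commutator Ru = ⊤ := by
    rcases (commutator Ru).normal_of_characteristic.eq_bot_or_eq_top with h | h
    · exfalso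
      have hcomm : ∀ p q : Ru, p * q = q * p := fun p q => by
        rw [← commutatorElement_eq_one_iff_mul_comm, ← Subgroup.mem_bot, ← h, commutator_def]
        exact Subgroup.commutator_mem_commutator (Subgroup.mem_top _) (Subgroup.mem_top _)
      letI : CommGroup Ru := { (inferInstance : Group Ru) with mul_comm := hcomm }
      have hp := IsSimpleGroup.prime_card (α := Ru)
      rw [ru_facts.2.1] at hp
      norm_num at hp
    · exact h
  set D := commutator fourRu with hD
  set π := QuotientGroup.mk' (Subgroup.center fourRu) with hπ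
  have hmap : D.map π = ⊤ := by
    rw [hD, commutator_def, Subgroup.map_commutator,
      Subgroup.map_top_of_surjective π (QuotientGroup.mk'_surjective _), ← commutator_def, hperf]
  set φ : D →* grp := ruEquiv.toMonoidHom.comp (π.comp D.subtype) with hφ
  have hker : ∀ x : D, x ∈ φ.ker ↔ (x : fourRu) ∈ Subgroup.center fourRu := fun x => by
    rw [MonoidHom.mem_ker, hφ]
    show ruEquiv (π x) = 1 ↔ _
    rw [MulEquiv.map_eq_one_iff, hπ, QuotientGroup.mk'_apply, QuotientGroup.eq_one_iff]
  have hsurj : Function.Surjective φ := fun g => by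
    obtain ⟨x, hx, hxg⟩ : ruEquiv.symm g ∈ D.map π := hmap ▸ Subgroup.mem_top _
    exact ⟨⟨x, hx⟩, by show ruEquiv (π x) = g; rw [hxg, MulEquiv.apply_symm_apply]⟩
  have hDD : D ≤ ⁅D, D⁆ := by
    rw [hD]
    conv_lhs => rw [commutator_def]
    rw [Subgroup.commutator_le]
    intro a _ b _
    rw [← hD]
    have dec : ∀ a : fourRu, ∃ d ∈ D, ∀ g, g * (d⁻¹ * a) = d⁻¹ * a * g := fun a => by
      obtain ⟨d, hd, hda⟩ : π a ∈ D.map π := hmap ▸ Subgroup.mem_top _
      refine ⟨d, hd, fun g => Subgroup.mem_center_iff.1 ?_ g⟩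
      rw [← QuotientGroup.eq]
      exact hda
    obtain ⟨d, hd, hdz⟩ := dec a
    obtain ⟨e, he, hez⟩ := dec b
    set u := d⁻¹ * a with hu
    set v := e⁻¹ * b with hv
    have ea : a = d * u := by rw [hu]; group
    have eb : b = e * v := by rw [hv]; group
    have : ⁅a, b⁆ = ⁅d, e⁆ := by
      rw [commutatorElement_def, commutatorElement_def, ea, eb, mul_inv_rev d u, mul_inv_rev e v]
      calc d * u * (e * v) * (u⁻¹ * d⁻¹) * (v⁻¹ * e⁻¹)
          = d * (u * (e * v)) * u⁻¹ * d⁻¹ * (v⁻¹ * e⁻¹) := by group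
        _ = d * ((e * v) * u) * u⁻¹ * d⁻¹ * (v⁻¹ * e⁻¹) := by rw [hdz]
        _ = d * e * (v * d⁻¹) * (v⁻¹ * e⁻¹) := by group
        _ = d * e * (d⁻¹ * v) * (v⁻¹ * e⁻¹) := by rw [hez]
        _ = _ := by group
    rw [this]
    exact Subgroup.commutator_mem_commutator hd he
  have hcomm : commutator D = ⊤ := by
    rw [← (Subgroup.map_injective D.subtype_injective).eq_iff, commutator_def, Subgroup.map_commutator,
      ← MonoidHom.range_eq_map, Subgroup.range_subtype]
    exact le_antisymm (Subgroup.commutator_le.2 fun a ha b hb => by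
      rw [commutatorElement_def]; exact mul_mem (mul_mem (mul_mem ha hb) (inv_mem ha)) (inv_mem hb)) hDD
  have hstem : Cfsg.IsStemExtension φ := by
    refine ⟨hsurj, fun x hx => Subgroup.mem_center_iff.2 fun g => Subtype.ext ?_, fun x _ => ?_⟩
    · exact Subgroup.mem_center_iff.1 ((hker x).1 hx) g.1
    · rw [hcomm]; exact Subgroup.mem_top _
  have hw : wit ∈ D := pow_mem (Subgroup.commutator_mem_commutator (Subgroup.mem_top _) (Subgroup.mem_top _)) _
  have hc2 : Nat.card φ.ker = 2 := by
    refine ((Nat.dvd_prime Nat.prime_two).1 (card_ker_dvd_two hstem)).resolve_left fun h1 => wit_ne_one ?_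
    haveI := (Nat.card_eq_one_iff_unique.1 h1).1
    exact congrArg (fun x : φ.ker => x.1.1)
      (Subsingleton.elim (⟨⟨wit, hw⟩, (hker _).2 wit_center⟩ : φ.ker) 1)
  have hgrp : Cfsg.HasCyclicSchurMultiplier grp 2 := by
    haveI : IsCyclic φ.ker := isCyclic_of_prime_card (hp := ⟨Nat.prime_two⟩) hc2
    refine ⟨⟨D, inferInstance, inferInstance, φ, hstem,
      ⟨(zmodCyclicMulEquiv inferInstance).symm.trans
        (AddEquiv.toMultiplicative (ZMod.ringEquivCongr hc2).toAddEquiv)⟩⟩,
      fun Γ _ _ σ hσ => ?_⟩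
    rcases (Nat.dvd_prime Nat.prime_two).1 (card_ker_dvd_two hσ) with h1 | h1
    · haveI := (Nat.card_eq_one_iff_unique.1 h1).1
      exact ⟨1, fun z => ⟨1, Subsingleton.elim _ _⟩⟩
    · haveI : IsCyclic σ.ker := isCyclic_of_prime_card (hp := ⟨Nat.prime_two⟩) h1
      let e : Multiplicative (ZMod 2) ≃* σ.ker :=
        (AddEquiv.toMultiplicative (ZMod.ringEquivCongr h1.symm).toAddEquiv).trans
          (zmodCyclicMulEquiv inferInstance)
      exact ⟨e.toMonoidHom, e.surjective⟩
  exact CfsgLib.SchurMult.hasSchurMultiplier_congr ruEquiv.symm hgrp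

end CfsgLib.RuMult
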